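/-
Helper library (helper95): piece W2 of helper53's Hall-Higman farm (S3787): the wreath section,
elementary abelian case.
-/
import Mathlib
import Cfsg.Prelude
import Cfsg.Agent.Lib.Helper33.Sections
import Cfsg.Agent.Lib.Helper53.HH.Defs2
import Cfsg.Agent.Lib.Helper95.HHW2b

set_option autoImplicit false

namespace Cfsg.Agent.Lib.Helper95.HH

open Subgroup Cfsg Cfsg.Agent.Lib.Helper53.HH

theorem IsWr.of_equiv {p : ℕ} {W W' : Type*} [Group W] [Group W'] (e : W ≃* W') (h : IsWr p W) :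
    IsWr p W' := by
  obtain ⟨B, t, hB, hBc, hBp, hBcard, ht, htB, hW, hC⟩ := h
  refine ⟨B.map e.toMonoidHom, e t, hB.map _ e.surjective, inferInstance, ?_, ?_, ?_, ?_, ?_, ?_⟩
  · rintro _ ⟨b, hb, rfl⟩
    rw [← map_pow, hBp b hb, map_one]
  · rw [Subgroup.card_map_of_injective (f := e.toMonoidHom) e.injective, hBcard]
  · rw [← ht]; exact MulEquiv.orderOf_eq e t
  · intro h
    exact htB ((Subgroup.mem_map_iff_mem (f := e.toMonoidHom) e.injective).mp h)
  · rw [← Nat.card_congr e.toEquiv, hW]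
  · have h1 : B.map e.toMonoidHom ⊓ centralizer ({e t} : Set W') =
        (B ⊓ centralizer ({t} : Set W)).map e.toMonoidHom := by
      ext y
      constructor
      · rintro ⟨⟨b, hb, rfl⟩, hy⟩
        refine ⟨b, ⟨hb, ?_⟩, rfl⟩
        have hy' : e b ∈ centralizer ({e t} : Set W') := hy
        rw [mem_centralizer_singleton_iff, ← map_mul, ← map_mul] at hy'
        exact mem_centralizer_singleton_iff.mpr (e.injective hy')
      · rintro ⟨b, hb, rfl⟩
        refine ⟨⟨b, hb.1, rfl⟩, ?_⟩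
        have hb2 := mem_centralizer_singleton_iff.mp hb.2
        show e b ∈ centralizer ({e t} : Set W')
        rw [mem_centralizer_singleton_iff, ← map_mul, ← map_mul, hb2]
    rw [h1, Subgroup.card_map_of_injective (f := e.toMonoidHom) e.injective, hC]

theorem exists_small (W₁ : Type*) [Group W₁] [Finite W₁] :
    ∃ (W : Type) (_ : Group W) (_ : Finite W), Nonempty (W₁ ≃* W) := by
  let e := Finite.equivFin W₁
  refine ⟨Fin (Nat.card W₁), Equiv.group e.symm, inferInstance, ⟨?_⟩⟩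
  exact @MulEquiv.symm _ _ (Equiv.mul e.symm) _ (Equiv.mulEquiv e.symm)

theorem exists_quot_isWr {Γ : Type*} [Group Γ] [Finite Γ] {p : ℕ} [Fact p.Prime] (E : Subgroup Γ)
    [hEn : E.Normal] (hEc : ∀ a ∈ E, ∀ b ∈ E, a * b = b * a) (hEp : ∀ a ∈ E, a ^ p = 1) (x : Γ)
    (hxE : x ∉ E) (hxp : x ^ p ∈ E) (htop : E ⊔ zpowers x = ⊤) (v : Γ) (hv : v ∈ E)
    (hnorm : (v * x) ^ p ≠ x ^ p) :
    ∃ (M : Subgroup Γ) (_ : M.Normal), IsWr p (Γ ⧸ M) := by
  set n : Γ := (v * x) ^ p * (x ^ p)⁻¹ with hn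
  have hn1 : n ≠ 1 := fun h => hnorm (mul_inv_eq_one.mp h)
  let S : Set (Subgroup Γ) := {M | M.Normal ∧ M ≤ E ∧ n ∉ M}
  have hS : S.Nonempty := ⟨⊥, inferInstance, bot_le, fun h => hn1 (Subgroup.mem_bot.mp h)⟩
  obtain ⟨M, ⟨hMn, hME, hnM⟩, hmax⟩ := (Set.toFinite S).exists_maximal hS
  refine ⟨M, hMn, ?_⟩
  set π := QuotientGroup.mk' M with hπ
  have hπs : Function.Surjective π := QuotientGroup.mk'_surjective M
  have hker : ∀ g : Γ, π g = 1 ↔ g ∈ M := fun g => QuotientGroup.eq_one_iff g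
  have hmemE : ∀ g : Γ, π g ∈ E.map π → g ∈ E := by
    rintro g ⟨e, he, heq⟩
    have h1 : π (e⁻¹ * g) = 1 := by rw [map_mul, map_inv, heq]; simp
    have h2 := E.mul_mem he (hME ((hker _).mp h1))
    simpa using h2
  have : IsMulCommutative E := ⟨⟨fun a b => Subtype.ext (hEc a a.2 b b.2)⟩⟩
  have : (E.map π).Normal := hEn.map π hπs
  have hπn : π n = (π v * π x) ^ p * ((π x) ^ p)⁻¹ := by
    rw [hn]; simp only [map_mul, map_pow, map_inv]
  refine isWr_of_min (E.map π) ?_ (π x) ?_ ?_ ?_ (π v) (Subgroup.mem_map_of_mem π hv) ?_ ?_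
  · rintro _ ⟨b, hb, rfl⟩
    rw [← map_pow, hEp b hb, map_one]
  · exact fun h => hxE (hmemE x h)
  · rw [← map_pow]; exact Subgroup.mem_map_of_mem π hxp
  · rw [← MonoidHom.map_zpowers, ← Subgroup.map_sup, htop, Subgroup.map_top_of_surjective _ hπs]
  · intro h
    apply hnM
    rw [← hker, hπn, h]; simp
  · intro N hN hNE hNbot
    rw [← hπn]
    by_contra hcon
    apply hNbot
    have hN' : N.comap π ∈ S := by
      refine ⟨hN.comap π, ?_, hcon⟩
      intro g hg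
      exact hmemE g (hNE hg)
    have hle : M ≤ N.comap π := by
      intro g hg
      rw [Subgroup.mem_comap, (hker g).mpr hg]
      exact N.one_mem
    have hle' := hmax hN' hle
    rw [eq_bot_iff]
    intro y hy
    obtain ⟨g, rfl⟩ := hπs y
    rw [Subgroup.mem_bot, hker]
    exact hle' hy

theorem wreath_elem {Γ : Type*} [Group Γ] [Finite Γ] {p : ℕ} [Fact p.Prime] (E : Subgroup Γ)
    [E.Normal]
    (hEc : ∀ a ∈ E, ∀ b ∈ E, a * b = b * a) (hEp : ∀ a ∈ E, a ^ p = 1) (x : Γ) (hxE : x ∉ E)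
    (hxp : x ^ p ∈ E) (v : Γ) (hv : v ∈ E) (hnorm : (v * x) ^ p ≠ x ^ p) :
    ∃ (W : Type) (_ : Group W) (_ : Finite W), IsWr p W ∧ Involves W ↥(E ⊔ Subgroup.zpowers x) := by
  set K := E ⊔ zpowers x with hK
  have hEK : E ≤ K := le_sup_left
  have hxK : x ∈ K := le_sup_right (a := E) (mem_zpowers x)
  have hz : (zpowers x).subgroupOf K = zpowers (⟨x, hxK⟩ : K) := by
    have h1 : (zpowers (⟨x, hxK⟩ : K)).map K.subtype = zpowers x := by
      rw [MonoidHom.map_zpowers]; rfl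
    rw [← h1]
    exact Subgroup.comap_map_eq_self_of_injective (Subgroup.subtype_injective _) _
  have htop : E.subgroupOf K ⊔ zpowers (⟨x, hxK⟩ : K) = ⊤ := by
    rw [← hz, ← Subgroup.subgroupOf_sup hEK le_sup_right, ← hK, Subgroup.subgroupOf_self]
  obtain ⟨M, hM, hW⟩ := exists_quot_isWr (p := p) (E.subgroupOf K)
    (fun a ha b hb => Subtype.ext (hEc a ha b hb))
    (fun a ha => Subtype.ext (hEp a ha)) ⟨x, hxK⟩ hxE hxp htop ⟨v, hEK hv⟩ hv
    (fun h => hnorm (congrArg Subtype.val h))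
  obtain ⟨W, hG, hF, ⟨e⟩⟩ := exists_small (↥K ⧸ M)
  refine ⟨W, hG, hF, IsWr.of_equiv e hW, ?_⟩
  exact Cfsg.Agent.Lib.Helper33.involves_of_equiv e
    (Cfsg.Agent.Lib.Helper33.involves_quotient M (Cfsg.Agent.Lib.Helper33.involves_self _))

end Cfsg.Agent.Lib.Helper95.HH
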