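import Cfsg.Agent.Lib.Helper95.AschD

set_option autoImplicit false

/-!
# Maximal subgroups of `SL_n(q)`: the generic refinement of the class list

`refined` turns `Cls n H ∨ InLinearResidualClass H` for a maximal subgroup `H` of `SL_n(F)` into
equalities `H = M ⊓ SL`, together with the arithmetic information and the exclusion of the small
fields; the rows for the individual `n` only have to enumerate factorisations of `n`.
-/

namespace Cfsg.Agent.Lib.Helper95.AschR

open Cfsg Cfsg.Geo Matrix Cfsg.Agent.Lib.Helper13.Asch Cfsg.Agent.Lib.Helper95.AschD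
open scoped Kronecker MatrixGroups

variable {F : Type*} [Field F]

theorem subfield_ne_top [Fintype F] {F₀ : Subfield F} {r : ℕ} (hr : r.Prime)
    (hc : Fintype.card F = Nat.card F₀ ^ r) : F₀ ≠ ⊤ := by
  rintro rfl
  have h1 : Nat.card (⊤ : Subfield F) = Fintype.card F := by
    rw [← Nat.card_eq_fintype_card]
    exact Nat.card_congr Subfield.topEquiv.toEquiv
  rw [h1] at hc
  have h2 : 1 < Fintype.card F := Fintype.one_lt_card
  have h3 : Fintype.card F ^ 1 < Fintype.card F ^ r := Nat.pow_lt_pow_right h2 hr.one_lt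
  rw [pow_one] at h3
  omega

/-- the refined list -/
theorem refined [Fintype F] (n : ℕ) (hn : 3 ≤ n) (H : Subgroup (GL (Fin n) F))
    (hH : IsMaximalIn (specialLinear (Fin n) F) H) :
    (∃ W : Submodule F (Fin n → F), W ≠ ⊥ ∧ W ≠ ⊤ ∧
      H = subspaceStabilizer W ⊓ specialLinear (Fin n) F) ∨
    (∃ (t m : ℕ) (D : Fin t → Submodule F (Fin n → F)), IsMDecomposition m D ∧ t * m = n ∧
      (m = 1 → 5 ≤ Fintype.card F) ∧ (m = 2 → 3 ≤ Fintype.card F) ∧
      H = decompositionStabilizer D ⊓ specialLinear (Fin n) F) ∨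
    (∃ (r : ℕ) (K : Subalgebra F (Matrix (Fin n) (Fin n) F)), r.Prime ∧ r ∣ n ∧
      IsFieldSubalgebra r K ∧ H = subalgebraNormalizer K ⊓ specialLinear (Fin n) F) ∨
    (∃ (n₁ n₂ : ℕ) (e : Fin n ≃ Fin n₁ × Fin n₂) (P : GL (Fin n) F), 2 ≤ n₁ ∧ n₁ < n₂ ∧
      n₁ * n₂ = n ∧ (n₁ = 2 → 3 ≤ Fintype.card F) ∧
      H = tensorProductSubgroup n₁ n₂ e P ⊓ specialLinear (Fin n) F) ∨
    (∃ (F₀ : Subfield F) (r : ℕ) (P : GL (Fin n) F), r.Prime ∧
      Fintype.card F = Nat.card F₀ ^ r ∧ H = subfieldSubgroup F₀ P ⊓ specialLinear (Fin n) F) ∨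
    (∃ (r m : ℕ) (R : Subgroup (GL (Fin n) F)), IsLinearSymplecticTypeData r R ∧ 1 ≤ m ∧
      n = r ^ m ∧ H = subgroupNormalizer R ⊓ specialLinear (Fin n) F) ∨
    (∃ (m t : ℕ) (e : Fin n ≃ (Fin t → Fin m)) (P : GL (Fin n) F), 3 ≤ m ∧ 2 ≤ t ∧ n = m ^ t ∧
      H ≤ tensorWreathSubgroup m t e P) ∨
    (∃ f : (Fin n → F) → (Fin n → F) → F, IsSymplecticForm f ∧ Even n ∧
      H = similarityGroup f ⊓ specialLinear (Fin n) F) ∨
    (∃ (σ : F ≃+* F) (f : (Fin n → F) → (Fin n → F) → F), IsUnitaryForm σ f ∧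
      H = similarityGroup f ⊓ specialLinear (Fin n) F) ∨
    (∃ Q : (Fin n → F) → F, IsNondegenerateQuadraticForm Q ∧ Odd (Fintype.card F) ∧
      H = quadSimilarityGroup Q ⊓ specialLinear (Fin n) F) ∨
    InLinearResidualClass H := by
  have hcard : 3 ≤ Fintype.card (Fin n) := by rw [Fintype.card_fin]; exact hn
  have hq : 1 < Fintype.card F := Fintype.one_lt_card
  -- the ten targets
  have T1 : ∀ W : Submodule F (Fin n → F), W ≠ ⊥ → W ≠ ⊤ → H ≤ subspaceStabilizer W →
      H = subspaceStabilizer W ⊓ specialLinear (Fin n) F := fun W h0 h1 h =>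
    eq_inf_of_maximal hH h (sl_not_le_stab W h0 h1)
  have T3 : ∀ (r : ℕ) (K : Subalgebra F (Matrix (Fin n) (Fin n) F)), r.Prime →
      IsFieldSubalgebra r K → H ≤ subalgebraNormalizer K →
      r ∣ n ∧ H = subalgebraNormalizer K ⊓ specialLinear (Fin n) F := fun r K hr hK h =>
    ⟨by simpa using dvd_card_of_field K hK, eq_inf_of_maximal hH h (sl_not_le_field hcard hr K hK)⟩
  have T8 : ∀ f : (Fin n → F) → (Fin n → F) → F, IsSymplecticForm f → H ≤ similarityGroup f →
      H = similarityGroup f ⊓ specialLinear (Fin n) F := fun f hf h =>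
    eq_inf_of_maximal hH h (sl_not_le_sim hcard f hf.bilinear.add_left hf.nondegenerate)
  have T9 : ∀ (σ : F ≃+* F) (f : (Fin n → F) → (Fin n → F) → F), IsUnitaryForm σ f →
      H ≤ similarityGroup f → H = similarityGroup f ⊓ specialLinear (Fin n) F := fun σ f hf h =>
    eq_inf_of_maximal hH h (sl_not_le_sim hcard f hf.add_left hf.nondegenerate)
  have T10 : ∀ Q : (Fin n → F) → F, IsNondegenerateQuadraticForm Q → H ≤ quadSimilarityGroup Q →
      H = quadSimilarityGroup Q ⊓ specialLinear (Fin n) F := fun Q hQ h =>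
    eq_inf_of_maximal hH h (sl_not_le_quadSim hcard Q hQ)
  rcases AschD.main n hn H with hc | hres
  swap
  · iterate 10 right
    exact hres
  rcases hc with ⟨W, h0, h1, h⟩ | ⟨t, m, D, hD, h⟩ | ⟨r, K, hr, hK, h⟩ | ⟨a, b, e, P, ha, hb, h⟩ |
    ⟨F₀, r, P, hr, hc, h⟩ | ⟨r, m, R, hR, hm, hnr, h⟩ | ⟨m, t, e, P, hm, ht, h⟩ |
    ⟨f, hf, he, h4, h⟩ | ⟨σ, f, hf, h⟩ | ⟨Q, hQ, ho, h⟩
  · exact Or.inl ⟨W, h0, h1, T1 W h0 h1 h⟩
  · have htm : t * m = n := by simpa using card_of_decomp D hD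
    by_cases hm1 : m = 1
    · subst hm1
      by_cases h5 : 5 ≤ Fintype.card F
      · exact Or.inr (Or.inl ⟨t, 1, D, hD, htm, fun _ => h5, fun h' => absurd h' (by norm_num),
          eq_inf_of_maximal hH h (sl_not_le_decomp D hD)⟩)
      · have hq' : Fintype.card F = 2 ∨ Fintype.card F = 3 ∨ Fintype.card F = 4 := by omega
        rcases hq' with hq' | hq' | hq'
        · obtain ⟨W, h0, h1, hW⟩ := monomial_two hq' D hD
          exact Or.inl ⟨W, h0, h1, T1 W h0 h1 (h.trans hW)⟩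
        · obtain ⟨Q, hQ, hW⟩ := monomial_three hq' D hD
          iterate 9 right
          exact Or.inl ⟨Q, hQ, by rw [hq']; decide, T10 Q hQ (h.trans hW)⟩
        · obtain ⟨σ, f, hf, hW⟩ := monomial_four hq' D hD
          iterate 8 right
          exact Or.inl ⟨σ, f, hf, T9 σ f hf (h.trans hW)⟩
    · by_cases hm2 : m = 2
      · subst hm2
        by_cases h3 : 3 ≤ Fintype.card F
        · exact Or.inr (Or.inl ⟨t, 2, D, hD, htm, fun h' => absurd h' (by norm_num), fun _ => h3,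
            eq_inf_of_maximal hH h (sl_not_le_decomp D hD)⟩)
        · have hq' : Fintype.card F = 2 := by omega
          obtain ⟨f, hf, hW⟩ := blocks_two hq' D hD
          iterate 7 right
          exact Or.inl ⟨f, hf, ⟨t, by omega⟩, T8 f hf (h.trans hW)⟩
      · exact Or.inr (Or.inl ⟨t, m, D, hD, htm, fun h' => absurd h' hm1, fun h' => absurd h' hm2,
          eq_inf_of_maximal hH h (sl_not_le_decomp D hD)⟩)
  · obtain ⟨h1, h2⟩ := T3 r K hr hK h
    exact Or.inr (Or.inr (Or.inl ⟨r, K, hr, h1, hK, h2⟩))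
  · have hab : a * b = n := by
      have := Fintype.card_congr e
      simpa using this.symm
    by_cases ha2 : a = 2
    · subst ha2
      by_cases h3 : 3 ≤ Fintype.card F
      · exact Or.inr (Or.inr (Or.inr (Or.inl ⟨2, b, e, P, ha, hb, hab, fun _ => h3,
          eq_inf_of_maximal hH h (sl_not_le_tensor ha (by omega) e P)⟩)))
      · have hq' : Fintype.card F = 2 := by omega
        obtain ⟨K, hK, hW⟩ := AschD.tensor_two_field hq' (by omega) e P
        obtain ⟨h1, h2⟩ := T3 2 K Nat.prime_two hK (h.trans hW)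
        exact Or.inr (Or.inr (Or.inl ⟨2, K, Nat.prime_two, h1, hK, h2⟩))
    · exact Or.inr (Or.inr (Or.inr (Or.inl ⟨a, b, e, P, ha, hb, hab, fun h' => absurd h' ha2,
        eq_inf_of_maximal hH h (sl_not_le_tensor ha (by omega) e P)⟩)))
  · exact Or.inr (Or.inr (Or.inr (Or.inr (Or.inl ⟨F₀, r, P, hr, hc,
      eq_inf_of_maximal hH h (sl_not_le_subfield (by omega) F₀ (subfield_ne_top hr hc) P)⟩))))
  · exact Or.inr (Or.inr (Or.inr (Or.inr (Or.inr (Or.inl ⟨r, m, R, hR, hm, hnr,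
      eq_inf_of_maximal hH h (sl_not_le_sympNormalizer hcard R hR)⟩)))))
  · have hmt : n = m ^ t := by
      have := Fintype.card_congr e
      simpa using this
    exact Or.inr (Or.inr (Or.inr (Or.inr (Or.inr (Or.inr (Or.inl ⟨m, t, e, P, hm, ht, hmt, h⟩))))))
  · iterate 7 right
    exact Or.inl ⟨f, hf, he, T8 f hf h⟩
  · iterate 8 right
    exact Or.inl ⟨σ, f, hf, T9 σ f hf h⟩
  · iterate 9 right
    exact Or.inl ⟨Q, hQ, ho, T10 Q hQ h⟩

end Cfsg.Agent.Lib.Helper95.AschR
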