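import Mathlib

set_option autoImplicit false

namespace Cfsg.Agent.Lib.Helper95

/-- the arithmetic at the end of the "odd order correlation" argument. -/
theorem design_nt (n k lam d a b : ℤ) (m : ℕ) (hm : Odd m) (hn : 2 ≤ n) (hk1 : 1 ≤ k)
    (hkn : k ≤ n) (hcop : IsCoprime k n) (h1 : d + lam = k) (h2 : d + n * lam = k ^ 2)
    (h3 : a * a = d ^ m) (h4 : a + n * b = k ^ m) : k = 1 ∨ k = n - 1 := by
  have hkn' : k ≠ n := by
    rintro rfl
    have := isCoprime_self.1 hcop
    rcases Int.isUnit_iff.1 this with h | h <;> omega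
  obtain ⟨j, rfl⟩ := hm
  have hlam : lam * (n - 1) = k * (k - 1) := by
    have : lam = k - d := by linarith
    subst this
    nlinarith
  have hlam_le : lam ≤ k - 1 := by
    by_contra hcon
    push Not at hcon
    have h5 : k * (n - 1) ≤ lam * (n - 1) := by
      apply mul_le_mul_of_nonneg_right (by omega) (by omega)
    have h6 : k * (k - 1) < k * (n - 1) := by
      apply mul_lt_mul_of_pos_left (by omega) (by omega)
    omega
  have hd1 : 1 ≤ d := by omega
  have hlam0 : 0 ≤ lam := by
    by_contra hcon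
    push Not at hcon
    have h5 : lam * (n - 1) < 0 := mul_neg_of_neg_of_pos hcon (by omega)
    have h6 : 0 ≤ k * (k - 1) := mul_nonneg (by omega) (by omega)
    omega
  have hdj : d ^ j ≠ 0 := pow_ne_zero _ (by omega)
  have hdvd : d ^ j ∣ a := by
    rw [← Int.pow_dvd_pow_iff (n := 2) (by norm_num)]
    refine ⟨d, ?_⟩
    rw [pow_two, h3]
    ring
  obtain ⟨s, rfl⟩ := hdvd
  have hs : s * s = d := by
    have h5 : (d ^ j * d ^ j) * (s * s) = (d ^ j * d ^ j) * d := by
      have : d ^ j * s * (d ^ j * s) = d ^ (2 * j + 1) := h3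
      calc (d ^ j * d ^ j) * (s * s) = d ^ j * s * (d ^ j * s) := by ring
        _ = d ^ (2 * j + 1) := this
        _ = (d ^ j * d ^ j) * d := by ring
    exact mul_left_cancel₀ (mul_ne_zero hdj hdj) h5
  have hmod : k ^ 2 ≡ d [ZMOD n] := by
    rw [← h2]
    have : (n * lam) ≡ 0 [ZMOD n] := (Int.modEq_zero_iff_dvd).2 (Dvd.intro _ rfl)
    simp
  have hmod2 : k ^ (2 * j + 1) ≡ d ^ j * k [ZMOD n] := by
    have : k ^ (2 * j + 1) = (k ^ 2) ^ j * k := by ring
    rw [this]
    exact (hmod.pow j).mul_right k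
  have hmod3 : d ^ j * s ≡ k ^ (2 * j + 1) [ZMOD n] := by
    rw [← h4]
    have : (n * b) ≡ 0 [ZMOD n] := (Int.modEq_zero_iff_dvd).2 (Dvd.intro _ rfl)
    simp
  have hdvd2 : n ∣ d ^ j * (k - s) := by
    have := (hmod3.trans hmod2).symm.dvd
    have e : d ^ j * s - d ^ j * k = -(d ^ j * (k - s)) := by ring
    rw [e] at this
    exact (dvd_neg.1 this)
  have hcopd : IsCoprime n d := by
    have h5 : IsCoprime n (k ^ 2) := (hcop.symm).pow_right
    rw [← h2] at h5
    exact (IsCoprime.add_mul_left_right_iff).1 h5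
  have hdvd3 : n ∣ k - s := (hcopd.pow_right).dvd_of_dvd_mul_left hdvd2
  have hsk : s * s ≤ k * k := by
    rw [hs]
    nlinarith
  have hs1 : s ≤ k := by
    by_contra hcon
    push Not at hcon
    nlinarith
  have hs2 : -k ≤ s := by
    by_contra hcon
    push Not at hcon
    nlinarith
  obtain ⟨c, hc⟩ := hdvd3
  have hc0 : 0 ≤ c := by
    by_contra hcon
    push Not at hcon
    have : n * c < 0 := mul_neg_of_pos_of_neg (by omega) hcon
    omega
  have hc1 : c ≤ 1 := by
    by_contra hcon
    push Not at hcon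
    have : n * 2 ≤ n * c := mul_le_mul_of_nonneg_left (by omega) (by omega)
    omega
  have hc' : c = 0 ∨ c = 1 := by omega
  rcases hc' with rfl | rfl
  · left
    have hsk' : s = k := by omega
    subst hsk'
    have : s * s ≤ s := by omega
    nlinarith
  · right
    have hsk' : s = k - n := by omega
    subst hsk'
    have h7 : lam = 2 * k - n := by
      have h8 : n * lam = n * (2 * k - n) := by nlinarith
      exact mul_left_cancel₀ (by omega) h8
    have h9 : (n - k) * (n - k) = n - k := by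
      have : d = n - k := by omega
      nlinarith
    have h10 : n - k ≠ 0 := by omega
    have h11 : n - k = 1 := by
      have : (n - k) * (n - k) = (n - k) * 1 := by rw [h9, mul_one]
      exact mul_left_cancel₀ h10 this
    omega

section TMat

variable {Ω : Type*} [Fintype Ω] [DecidableEq Ω]

/-- the matrix `u I + v J`. -/
def TMat (u v : ℤ) : Matrix Ω Ω ℤ := fun x y => (if x = y then u else 0) + v

theorem TMat_apply (u v : ℤ) (x y : Ω) : TMat u v x y = (if x = y then u else 0) + v := rfl

theorem TMat_mul (u v u' v' : ℤ) :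
    (TMat u v : Matrix Ω Ω ℤ) * TMat u' v' =
      TMat (u * u') (u * v' + v * u' + Fintype.card Ω * v * v') := by
  ext x y
  simp only [Matrix.mul_apply, TMat_apply, add_mul, mul_add, Finset.sum_add_distrib, ite_mul,
    zero_mul, mul_ite, mul_zero, Finset.sum_ite_eq, Finset.sum_ite_eq', Finset.mem_univ, if_true,
    Finset.sum_const, Finset.card_univ, nsmul_eq_mul]
  split_ifs <;> ring

theorem TMat_transpose (u v : ℤ) : (TMat u v : Matrix Ω Ω ℤ).transpose = TMat u v := by
  ext x y
  simp only [Matrix.transpose_apply, TMat_apply, eq_comm]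

theorem TMat_pow (u v : ℤ) (m : ℕ) : ∃ c : ℤ, (TMat u v : Matrix Ω Ω ℤ) ^ m = TMat (u ^ m) c := by
  induction m with
  | zero =>
    refine ⟨0, ?_⟩
    ext x y
    simp [TMat_apply, Matrix.one_apply]
  | succ m ih =>
    obtain ⟨c, hc⟩ := ih
    exact ⟨_, by rw [pow_succ, hc, TMat_mul, pow_succ]⟩

theorem TMat_inj {u v u' v' : ℤ} {x y : Ω} (hxy : x ≠ y)
    (h : (TMat u v : Matrix Ω Ω ℤ) = TMat u' v') : u = u' ∧ v = v' := by
  have h1 := congrFun (congrFun h x) y
  have h2 := congrFun (congrFun h x) x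
  simp only [TMat_apply, if_neg hxy, if_true, zero_add] at h1 h2
  omega

theorem mul_TMat_zero {A : Matrix Ω Ω ℤ} {r : ℤ} (hA : ∀ x, ∑ y, A x y = r) (c : ℤ) :
    A * TMat 0 c = TMat 0 (r * c) := by
  ext x y
  simp only [Matrix.mul_apply, TMat_apply, ite_self, zero_add, ← Finset.sum_mul, hA]

open MulAction in
/-- an invariant function on pairs of points of a 2-transitive group. -/
theorem exists_TMat_of_invariant {G : Type*} [Group G] [MulAction G Ω]
    (h2 : IsMultiplyPretransitive G Ω 2) (A : Matrix Ω Ω ℤ)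
    (hA : ∀ (g : G) (x y : Ω), A (g • x) (g • y) = A x y) : ∃ u v : ℤ, A = TMat u v := by
  rw [is_two_pretransitive_iff] at h2
  by_cases hne : ∃ x₀ y₀ : Ω, x₀ ≠ y₀
  · obtain ⟨x₀, y₀, hxy⟩ := hne
    refine ⟨A x₀ x₀ - A x₀ y₀, A x₀ y₀, ?_⟩
    ext x y
    rw [TMat_apply]
    by_cases h : x = y
    · subst h
      rw [if_pos rfl]
      obtain ⟨z, hz⟩ : ∃ z, x ≠ z := by
        by_cases hx : x = x₀
        · exact ⟨y₀, hx ▸ hxy⟩
        · exact ⟨x₀, hx⟩
      obtain ⟨g, hg1, -⟩ := h2 hxy hz
      rw [← hg1, hA]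
      ring
    · rw [if_neg h]
      obtain ⟨g, hg1, hg2⟩ := h2 hxy h
      rw [← hg1, ← hg2, hA]
      ring
  · push Not at hne
    by_cases hemp : Nonempty Ω
    · obtain ⟨x₀⟩ := hemp
      refine ⟨A x₀ x₀, 0, ?_⟩
      ext x y
      rw [TMat_apply, hne x x₀, hne y x₀, if_pos rfl, add_zero]
    · refine ⟨0, 0, ?_⟩
      ext x y
      exact absurd ⟨x⟩ hemp

open MulAction in
/-- A "correlation of odd order" of a symmetric design with a 2-transitive group: the block size
`k`, if coprime to the number of points `n`, is `1` or `n - 1`. -/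
theorem design_aut {G : Type*} [Group G] [MulAction G Ω]
    (h2 : IsMultiplyPretransitive G Ω 2) (hn : 2 ≤ Fintype.card Ω) (α : MulAut G)
    (hα : Odd (orderOf α)) (M : Matrix Ω Ω ℤ) (h01 : ∀ x y, M x y * M x y = M x y)
    (hinv : ∀ (g : G) (x y : Ω), M (α g • x) (g • y) = M x y) (k : ℕ)
    (hcol : ∀ y, ∑ x, M x y = k) (hk1 : 1 ≤ k) (hkn : k ≤ Fintype.card Ω)
    (hcop : k.Coprime (Fintype.card Ω)) : k = 1 ∨ k = Fintype.card Ω - 1 := by
  obtain ⟨x₀, y₀, hxy⟩ := Fintype.one_lt_card_iff.1 (show 1 < Fintype.card Ω by omega)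
  -- powers of `M`
  have hpow : ∀ (j : ℕ) (g : G) (x z : Ω), (M ^ j) ((α ^ j) g • x) (g • z) = (M ^ j) x z := by
    intro j
    induction j with
    | zero =>
      intro g x z
      simp only [pow_zero, Matrix.one_apply, MulAut.one_apply]
      by_cases h : x = z
      · rw [if_pos h, if_pos (by rw [h])]
      · rw [if_neg h, if_neg (fun h' => h (MulAction.injective g h'))]
    | succ j ih =>
      intro g x z
      rw [pow_succ, pow_succ, Matrix.mul_apply, Matrix.mul_apply, MulAut.mul_apply,
        ← Equiv.sum_comp (MulAction.toPerm (α g))]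
      apply Finset.sum_congr rfl
      intro y _
      rw [MulAction.toPerm_apply, ih, hinv]
  have hm : ∀ (g : G) (x z : Ω), (M ^ orderOf α) (g • x) (g • z) = (M ^ orderOf α) x z := by
    intro g x z
    have := hpow (orderOf α) g x z
    rwa [pow_orderOf_eq_one, MulAut.one_apply] at this
  obtain ⟨a, b, hab⟩ := exists_TMat_of_invariant h2 _ hm
  have h1 : ∀ (g : G) (x z : Ω), (M * M.transpose) (g • x) (g • z) = (M * M.transpose) x z := by
    intro g x z
    rw [Matrix.mul_apply, Matrix.mul_apply, ← Equiv.sum_comp (MulAction.toPerm (α⁻¹ g))]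
    apply Finset.sum_congr rfl
    intro y _
    have e : g = α (α⁻¹ g) := by simp
    rw [MulAction.toPerm_apply, Matrix.transpose_apply, Matrix.transpose_apply]
    conv_lhs => rw [e]
    simp only [MulAut.inv_apply_self]
    rw [hinv, hinv]
  obtain ⟨d, lam, hd⟩ := exists_TMat_of_invariant h2 _ h1
  have h3 : ∀ (g : G) (x z : Ω), (M.transpose * M) (g • x) (g • z) = (M.transpose * M) x z := by
    intro g x z
    rw [Matrix.mul_apply, Matrix.mul_apply, ← Equiv.sum_comp (MulAction.toPerm (α g))]
    apply Finset.sum_congr rfl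
    intro y _
    rw [MulAction.toPerm_apply, Matrix.transpose_apply, Matrix.transpose_apply, hinv, hinv]
  obtain ⟨d', lam', hd'⟩ := exists_TMat_of_invariant h2 _ h3
  -- row sums
  have hrow' : ∀ x, ∑ y, M x y = d + lam := by
    intro x
    have := congrFun (congrFun hd x) x
    rw [Matrix.mul_apply, TMat_apply, if_pos rfl] at this
    rw [← this]
    apply Finset.sum_congr rfl
    intro y _
    rw [Matrix.transpose_apply, h01]
  have hdl' : d' + lam' = k := by
    have := congrFun (congrFun hd' x₀) x₀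
    rw [Matrix.mul_apply, TMat_apply, if_pos rfl] at this
    rw [← this, ← hcol x₀]
    apply Finset.sum_congr rfl
    intro y _
    rw [Matrix.transpose_apply, h01]
  have hn0 : (Fintype.card Ω : ℤ) ≠ 0 := by
    have : (0 : ℤ) < Fintype.card Ω := by exact_mod_cast (show 0 < Fintype.card Ω by omega)
    omega
  have hdl : d + lam = k := by
    have h5 : ∑ x, ∑ y, M x y = ∑ y, ∑ x, M x y := Finset.sum_comm
    simp only [hrow', hcol, Finset.sum_const, Finset.card_univ, nsmul_eq_mul] at h5
    exact mul_left_cancel₀ hn0 h5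
  have hrow : ∀ x, ∑ y, M x y = k := fun x => by rw [hrow', hdl]
  have hcolT : ∀ x, ∑ y, M.transpose x y = k := fun x => by
    simp only [Matrix.transpose_apply, hcol]
  have e1 : d + Fintype.card Ω * lam = (k : ℤ) ^ 2 := by
    have h5 : (M * M.transpose) * TMat 0 1 = TMat 0 ((k : ℤ) * (k * 1)) := by
      rw [Matrix.mul_assoc, mul_TMat_zero hcolT, mul_TMat_zero hrow]
    rw [hd, TMat_mul] at h5
    have := (TMat_inj hxy h5).2
    linarith
  have e2 : d' + Fintype.card Ω * lam' = (k : ℤ) ^ 2 := by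
    have h5 : (M.transpose * M) * TMat 0 1 = TMat 0 ((k : ℤ) * (k * 1)) := by
      rw [Matrix.mul_assoc, mul_TMat_zero hrow, mul_TMat_zero hcolT]
    rw [hd', TMat_mul] at h5
    have := (TMat_inj hxy h5).2
    linarith
  have hlam : lam = lam' := by
    have h5 : ((Fintype.card Ω : ℤ) - 1) * lam = ((Fintype.card Ω : ℤ) - 1) * lam' := by
      linarith
    have h6 : ((Fintype.card Ω : ℤ) - 1) ≠ 0 := by
      have : (2 : ℤ) ≤ Fintype.card Ω := by exact_mod_cast hn
      omega
    exact mul_left_cancel₀ h6 h5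
  have hdd : d = d' := by linarith
  have hcomm : Commute M M.transpose := by
    show M * M.transpose = M.transpose * M
    rw [hd, hd', hlam, hdd]
  have e3 : a * a = d ^ orderOf α := by
    have h5 : (M ^ orderOf α) * (M ^ orderOf α).transpose = (M * M.transpose) ^ orderOf α := by
      rw [Matrix.transpose_pow, hcomm.mul_pow]
    obtain ⟨c, hc⟩ := TMat_pow (Ω := Ω) d lam (orderOf α)
    rw [hab, TMat_transpose, TMat_mul, hd, hc] at h5
    exact (TMat_inj hxy h5).1
  have e4 : a + Fintype.card Ω * b = (k : ℤ) ^ orderOf α := by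
    have h5 : ∀ (j : ℕ) (c : ℤ), M ^ j * TMat 0 c = TMat 0 ((k : ℤ) ^ j * c) := by
      intro j
      induction j with
      | zero => intro c; simp
      | succ j ih =>
        intro c
        rw [pow_succ, Matrix.mul_assoc, mul_TMat_zero hrow, ih, pow_succ, mul_assoc]
    have h6 := h5 (orderOf α) 1
    rw [hab, TMat_mul] at h6
    have := (TMat_inj hxy h6).2
    linarith
  have := design_nt (Fintype.card Ω) k lam d a b (orderOf α) hα (by exact_mod_cast hn)
    (by exact_mod_cast hk1) (by exact_mod_cast hkn) (Nat.isCoprime_iff_coprime.2 hcop) hdl e1 e3 e4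
  rcases this with h | h
  · left; exact_mod_cast h
  · right; omega

end TMat

end Cfsg.Agent.Lib.Helper95
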