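import Mathlib
import Cfsg.Agent.Lib.Helper3.OS.Defs

/-! S0723 farm (helper3), piece Q2 (helper95): the product case. -/

set_option autoImplicit false

namespace Cfsg.Agent.Lib.Helper95.OS

open Cfsg.Agent.Lib.Helper3.OS

variable {T : Type*} [Group T] {m : ℕ}

/-- [Q2] the product case -/
theorem product_case (X : Subgroup (Fin m → T))
    (𝒮 : Set (Equiv.Perm (Fin m) × (Fin m → (T ≃* T))))
    (hinv : ∀ s ∈ 𝒮, ∀ x, act s x ∈ X ↔ x ∈ X)
    (hmax : ∀ Y : Subgroup (Fin m → T), X ≤ Y → (∀ s ∈ 𝒮, ∀ y ∈ Y, act s y ∈ Y) → Y = X ∨ Y = ⊤)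
    (htr : ∀ i j, ∃ s ∈ 𝒮, s.1 i = j)
    (i₀ : Fin m) (t₀ : T) (h₀ : ∀ x ∈ X, x i₀ ≠ t₀) :
    ∃ K : Fin m → Subgroup T, (∀ i, K i ≠ ⊤) ∧ ∀ x, x ∈ X ↔ ∀ i, x i ∈ K i := by
  let K : Fin m → Subgroup T := fun i => X.map (Pi.evalMonoidHom _ i)
  have hK : ∀ i t, t ∈ K i ↔ ∃ x ∈ X, x i = t := fun i t => Subgroup.mem_map
  refine ⟨K, ?_, ?_⟩
  · intro j hj
    obtain ⟨s, hs, hsj⟩ := htr j i₀
    have h1 : (s.2 j).symm t₀ ∈ K j := by rw [hj]; trivial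
    obtain ⟨x, hx, hxj⟩ := (hK _ _).mp h1
    apply h₀ (act s x) ((hinv s hs x).mpr hx)
    rw [← hsj, act_apply, hxj]
    simp
  · have hXY : X ≤ Subgroup.pi Set.univ K := by
      intro x hx
      rw [Subgroup.mem_pi]
      intro i _
      exact (hK _ _).mpr ⟨x, hx, rfl⟩
    have hYinv : ∀ s ∈ 𝒮, ∀ y ∈ Subgroup.pi Set.univ K, act s y ∈ Subgroup.pi Set.univ K := by
      intro s hs y hy
      rw [Subgroup.mem_pi] at hy ⊢
      intro l _
      obtain ⟨i, rfl⟩ := s.1.surjective l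
      obtain ⟨x, hx, hxi⟩ := (hK _ _).mp (hy i trivial)
      refine (hK _ _).mpr ⟨act s x, (hinv s hs x).mpr hx, ?_⟩
      rw [act_apply, act_apply, hxi]
    have hYtop : Subgroup.pi Set.univ K ≠ ⊤ := by
      intro h
      have h1 : (Pi.mulSingle i₀ t₀ : Fin m → T) ∈ Subgroup.pi Set.univ K := by rw [h]; trivial
      rw [Subgroup.mem_pi] at h1
      obtain ⟨x, hx, hxi⟩ := (hK _ _).mp (h1 i₀ trivial)
      apply h₀ x hx
      rw [hxi]; simp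
    have hY : Subgroup.pi Set.univ K = X := (hmax _ hXY hYinv).resolve_right hYtop
    intro x
    conv_lhs => rw [← hY]
    rw [Subgroup.mem_pi]
    exact ⟨fun h i => h i trivial, fun h i _ => h i⟩

end Cfsg.Agent.Lib.Helper95.OS
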