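import Mathlib
import Cfsg.Agent.Lib.Helper3.OS.Defs

/-! S0723 farm (helper3), piece Q3d (helper95): the diagonal case, with Q3a Q3b Q3c as hypotheses
(`diagonal_core`). -/

set_option autoImplicit false

namespace Cfsg.Agent.Lib.Helper95.OS

open Cfsg.Agent.Lib.Helper3.OS

variable {T : Type*} [Group T] {m : ℕ}

/-- the diagonal case from the conclusions of Q3a, Q3b, Q3c. -/
theorem diagonal_core (X : Subgroup (Fin m → T)) (hne : X ≠ ⊤)
    (hQa : ∀ {i j : Fin m}, Rel X i j → ∃ θ : T ≃* T, ∀ x ∈ X, θ (x i) = x j)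
    (hQb : ∀ (J : Finset (Fin m)), (∀ i ∈ J, ∀ j ∈ J, Rel X i j → i = j) → ∀ f : Fin m → T,
      ∃ x ∈ X, ∀ j ∈ J, x j = f j)
    (hQc : ∀ i j : Fin m, Nat.card {l : Fin m // Rel X l i} = Nat.card {l : Fin m // Rel X l j}) :
    ∃ (ψ : Fin m → (T ≃* T)) (k : ℕ) (c : Fin m → Fin m), 2 ≤ k ∧
      (∀ j : Fin m, Nat.card {i : Fin m // c i = j} = k ∨ Nat.card {i : Fin m // c i = j} = 0) ∧
      ∀ x, x ∈ X ↔ ∀ i j : Fin m, c i = c j → ψ i (x i) = ψ j (x j) := by
  classical
  let S : Setoid (Fin m) := ⟨Rel X, ⟨Rel.refl X, Rel.symm, Rel.trans⟩⟩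
  let c : Fin m → Fin m := fun i => (Quotient.mk S i).out
  have hc1 : ∀ i, Rel X (c i) i := fun i => Quotient.mk_out (s := S) i
  have hc2 : ∀ i j, c i = c j ↔ Rel X i j := by
    intro i j
    constructor
    · intro h
      have h1 := hc1 j
      rw [← h] at h1
      exact (hc1 i).symm.trans h1
    · intro h
      have : Quotient.mk S i = Quotient.mk S j := Quotient.sound h
      show (Quotient.mk S i).out = (Quotient.mk S j).out
      rw [this]
  have hc3 : ∀ i, c (c i) = c i := fun i => (hc2 _ _).mpr (hc1 i)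
  choose ψ hψ using fun i => hQa (hc1 i).symm
  -- m > 0
  have hm : Nonempty (Fin m) := by
    by_contra hcon
    rw [not_nonempty_iff] at hcon
    apply hne
    rw [eq_top_iff]
    intro x _
    have : x = 1 := Subsingleton.elim _ _
    rw [this]; exact X.one_mem
  obtain ⟨i₁⟩ := hm
  refine ⟨ψ, Nat.card {l : Fin m // Rel X l i₁}, c, ?_, ?_, ?_⟩
  · have hpos : 0 < Nat.card {l : Fin m // Rel X l i₁} :=
      Nat.card_pos_iff.mpr ⟨⟨⟨i₁, Rel.refl X i₁⟩⟩, inferInstance⟩
    by_contra hcon
    have h1 : Nat.card {l : Fin m // Rel X l i₁} = 1 := by omega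
    have hsing : ∀ i j, Rel X i j → i = j := by
      intro i j hij
      have h2 : Nat.card {l : Fin m // Rel X l j} = 1 := (hQc j i₁).trans h1
      have h3 := (Nat.card_eq_one_iff_unique.mp h2).1
      exact congrArg Subtype.val (h3.elim ⟨i, hij⟩ ⟨j, Rel.refl X j⟩)
    apply hne
    rw [eq_top_iff]
    intro f _
    obtain ⟨x, hx, hxf⟩ := hQb Finset.univ (fun i _ j _ h => hsing i j h) f
    have : x = f := funext fun j => hxf j (Finset.mem_univ j)
    rw [← this]; exact hx
  · intro j
    by_cases hj : c j = j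
    · left
      rw [← hQc j i₁]
      refine Nat.card_congr (Equiv.subtypeEquivRight fun i => ?_)
      rw [← hc2, hj]
    · right
      rw [Nat.card_eq_zero]
      left
      refine ⟨fun i => hj ?_⟩
      rw [← i.2, hc3]
  · intro x
    constructor
    · intro hx i j hij
      rw [hψ i x hx, hψ j x hx, hij]
    · intro h
      obtain ⟨y, hy, hyx⟩ := hQb (Finset.univ.image c) (by
        intro r hr r' hr' hrr
        obtain ⟨a, _, rfl⟩ := Finset.mem_image.mp hr
        obtain ⟨b, _, rfl⟩ := Finset.mem_image.mp hr'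
        have := (hc2 _ _).mpr hrr
        rwa [hc3, hc3] at this) x
      have hyc : ∀ i, y (c i) = x (c i) := fun i =>
        hyx (c i) (Finset.mem_image_of_mem c (Finset.mem_univ i))
      have : x = y := by
        funext i
        apply (ψ i).injective
        rw [hψ i y hy, hyc, h i (c i) (hc3 i).symm, ← hyc, hψ (c i) y hy, hc3]
      rw [this]; exact hy

end Cfsg.Agent.Lib.Helper95.OS
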