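import Mathlib
import Cfsg.Agent.Lib.Helper3.OS.Defs

/-! S0723 farm (helper3), piece TR (helper95): `K` permutes the coordinates transitively, with Q1 as a
hypothesis (`trans_core`). -/

set_option autoImplicit false

namespace Cfsg.Agent.Lib.Helper95.OS

open Cfsg.Agent.Lib.Helper3.OS

variable {T : Type*} [Group T] {m : ℕ}

theorem mulSingle_support {a b : Fin m} {u u' : T}
    (h : (Pi.mulSingle a u : Fin m → T) = Pi.mulSingle b u') (hu : u ≠ 1) : a = b := by
  by_contra hab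
  have h1 := congrFun h a
  rw [Pi.mulSingle_eq_same, Pi.mulSingle_eq_of_ne hab] at h1
  exact hu h1

/-- the functions supported on `O`. -/
def supp (O : Set (Fin m)) : Subgroup (Fin m → T) where
  carrier := {x | ∀ l, l ∉ O → x l = 1}
  mul_mem' := fun {a b} ha hb l hl => by
    show a l * b l = 1
    rw [ha l hl, hb l hl, one_mul]
  one_mem' := fun _ _ => rfl
  inv_mem' := fun {a} ha l hl => by
    show (a l)⁻¹ = 1
    rw [ha l hl, inv_one]

theorem mem_supp {O : Set (Fin m)} {x : Fin m → T} : x ∈ supp O ↔ ∀ l, l ∉ O → x l = 1 := Iff.rfl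

theorem trans_core {H : Type*} [Group H] (N : Subgroup H) [N.Normal]
    (hmin : ∀ M : Subgroup H, M.Normal → M ≤ N → M = ⊥ ∨ M = N)
    (hT : ∃ a b : T, a * b ≠ b * a) (e : N ≃* (Fin m → T)) (K : Subgroup H)
    (hQ1 : ∀ α : (Fin m → T) ≃* (Fin m → T),
      ∃ s : Equiv.Perm (Fin m) × (Fin m → (T ≃* T)), ∀ x, α x = act s x)
    (hKN : ∀ h : H, ∃ n ∈ N, ∃ k ∈ K, h = n * k) (i j : Fin m) :
    ∃ k ∈ K, ∃ s : Equiv.Perm (Fin m) × (Fin m → (T ≃* T)), (∀ x, tr e k x = act s x) ∧ s.1 i = j := by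
  obtain ⟨t₁, ht₁⟩ : ∃ t : T, t ≠ 1 := by
    obtain ⟨a, b, hab⟩ := hT
    refine ⟨a, fun h => hab ?_⟩
    rw [h]; simp
  choose s hs using fun h : H => hQ1 (tr e h)
  have hσ : ∀ h l t, tr e h (Pi.mulSingle l t) = Pi.mulSingle ((s h).1 l) ((s h).2 l t) := by
    intro h l t
    rw [hs, act_mulSingle]
  have hne : ∀ h l, (s h).2 l t₁ ≠ 1 := by
    intro h l hcon
    apply ht₁
    apply ((s h).2 l).injective
    rw [hcon, map_one]
  have hmul : ∀ h h' l, (s (h * h')).1 l = (s h).1 ((s h').1 l) := by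
    intro h h' l
    have h1 := tr_mul e h h' (Pi.mulSingle l t₁)
    rw [hσ, hσ, hσ] at h1
    exact mulSingle_support h1 (hne _ _)
  have hone : ∀ l, (s 1).1 l = l := by
    intro l
    have h1 := hmul 1 1 l
    rw [mul_one] at h1
    exact ((s 1).1.injective h1).symm
  let O : Set (Fin m) := {l | ∃ h, (s h).1 i = l}
  let M : Subgroup H := ((supp O : Subgroup (Fin m → T)).comap e.toMonoidHom).map N.subtype
  have hMmem : ∀ g : H, g ∈ M ↔ ∃ n : N, e n ∈ (supp O : Subgroup (Fin m → T)) ∧ (n : H) = g := by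
    intro g
    exact Subgroup.mem_map
  have hMn : M.Normal := by
    constructor
    intro g hg h
    obtain ⟨n, hn, rfl⟩ := (hMmem g).mp hg
    refine (hMmem _).mpr ⟨MulAut.conjNormal h n, ?_, MulAut.conjNormal_apply ..⟩
    have h1 : e (MulAut.conjNormal h n) = tr e h (e n) := by
      rw [tr_apply, MulEquiv.symm_apply_apply]
    rw [h1, hs, mem_supp]
    intro l hl
    obtain ⟨l', rfl⟩ := (s h).1.surjective l
    rw [act_apply]
    have hl' : l' ∉ O := by
      rintro ⟨h', rfl⟩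
      exact hl ⟨h * h', hmul h h' i⟩
    rw [hn l' hl', map_one]
  have hMN : M ≤ N := Subgroup.map_subtype_le _
  have hMbot : M ≠ ⊥ := by
    intro hcon
    have h1 : ((e.symm (Pi.mulSingle i t₁) : N) : H) ∈ M := by
      refine (hMmem _).mpr ⟨_, ?_, rfl⟩
      rw [MulEquiv.apply_symm_apply, mem_supp]
      intro l hl
      have : l ≠ i := by
        rintro rfl
        exact hl ⟨1, hone _⟩
      exact Pi.mulSingle_eq_of_ne this _
    rw [hcon, Subgroup.mem_bot] at h1
    have h2 : (e.symm (Pi.mulSingle i t₁) : N) = 1 := Subtype.ext h1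
    have h3 : (Pi.mulSingle i t₁ : Fin m → T) = 1 := by
      have := congrArg e h2
      rwa [MulEquiv.apply_symm_apply, map_one] at this
    have h4 := congrFun h3 i
    rw [Pi.mulSingle_eq_same] at h4
    exact ht₁ h4
  have hMeq : M = N := (hmin M hMn hMN).resolve_left hMbot
  have hO : ∀ l, l ∈ O := by
    intro l
    by_contra hl
    have h1 : ((e.symm (Pi.mulSingle l t₁) : N) : H) ∈ M := by
      rw [hMeq]; exact (e.symm (Pi.mulSingle l t₁) : N).2
    obtain ⟨n, hn, hn'⟩ := (hMmem _).mp h1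
    have h2 : n = e.symm (Pi.mulSingle l t₁) := Subtype.ext hn'
    rw [h2, MulEquiv.apply_symm_apply] at hn
    have h3 := hn l hl
    rw [Pi.mulSingle_eq_same] at h3
    exact ht₁ h3
  obtain ⟨h, hh⟩ := hO j
  obtain ⟨n, hn, k, hk, rfl⟩ := hKN h
  refine ⟨k, hk, s k, hs k, ?_⟩
  by_contra hcon
  have h1 := tr_mul e n k (Pi.mulSingle i t₁)
  rw [hσ, hσ k, hh] at h1
  have h2 : ∀ x, tr e n x = e ⟨n, hn⟩ * x * (e ⟨n, hn⟩)⁻¹ := by
    intro x
    rw [tr_apply]
    have : MulAut.conjNormal n (e.symm x) = ⟨n, hn⟩ * e.symm x * (⟨n, hn⟩ : N)⁻¹ := by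
      apply Subtype.ext
      rw [MulAut.conjNormal_apply]
      rfl
    rw [this, map_mul, map_mul, map_inv, MulEquiv.apply_symm_apply]
  rw [h2] at h1
  have h3 := congrFun h1 j
  rw [Pi.mulSingle_eq_same, Pi.mul_apply, Pi.mul_apply, Pi.inv_apply,
    Pi.mulSingle_eq_of_ne (fun h => hcon h.symm)] at h3
  apply hne (n * k) i
  rw [h3]; simp

end Cfsg.Agent.Lib.Helper95.OS
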